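import Cfsg.Agent.H210.Off.Main
import Mathlib.GroupTheory.FiniteAbelian.Duality
import Mathlib.RingTheory.RootsOfUnity.AlgebraicallyClosed

/-!
# Commutators of offenders: duality
-/

set_option autoImplicit false
open Cfsg

namespace Cfsg.Agent.H210.Off

open Subgroup
open Cfsg.Agent.OddCyclic.T1Module Cfsg.Agent.OddCyclic.FFBasic Cfsg.Agent.OddCyclic.FFRed

universe u

/-- The action on the complex characters. -/
def dualC {X : Type*} [Group X] {V : Type*} [CommGroup V] (φ : X →* MulAut V) :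
    X →* MulAut (V →* ℂˣ) where
  toFun x :=
    { toFun := fun f => f.comp (φ x⁻¹).toMonoidHom
      invFun := fun f => f.comp (φ x).toMonoidHom
      left_inv := fun f => by
        ext1 v
        show f (φ x⁻¹ (φ x v)) = f v
        rw [← MulAut.mul_apply, ← map_mul, inv_mul_cancel, map_one, MulAut.one_apply]
      right_inv := fun f => by
        ext1 v
        show f (φ x (φ x⁻¹ v)) = f v
        rw [← MulAut.mul_apply, ← map_mul, mul_inv_cancel, map_one, MulAut.one_apply]
      map_mul' := fun f f' => rfl }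
  map_one' := by
    ext1 f
    ext1 v
    show f (φ (1 : X)⁻¹ v) = f v
    rw [inv_one, map_one, MulAut.one_apply]
  map_mul' := by
    intro x y
    ext1 f
    ext1 v
    show f (φ (x * y)⁻¹ v) = f (φ y⁻¹ (φ x⁻¹ v))
    rw [mul_inv_rev, map_mul, MulAut.mul_apply]

theorem dualC_apply {X : Type*} [Group X] {V : Type*} [CommGroup V] (φ : X →* MulAut V) (x : X)
    (f : V →* ℂˣ) (v : V) : dualC φ x f v = f (φ x⁻¹ v) := rfl

theorem main_comm {G : Type u} [Group G] [Finite G] {V : Type*} [CommGroup V] [Finite V]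
    {ρ : G →* MulAut V} (hρ : Function.Injective ρ)
    (hV : ∀ v : V, v * v = 1) (hO : pCore 2 G = ⊥) (h3 : NoInv3 G)
    (hK : Cfsg.IsCompositionKGroupWith Cfsg.IsSuzukiOrPSL2OddPowerThree G)
    (A : Subgroup G) (hA : ∀ a ∈ A, a * a = 1) (U : Subgroup V)
    (hU : ∀ a ∈ A, ∀ v, ρ a v * v⁻¹ ∈ U) : Nat.card A ^ 2 ≤ Nat.card U := by
  have hfin : Finite (V →* ℂˣ) := by
    apply Nat.finite_of_card_ne_zero
    rw [CommGroup.card_monoidHom_of_hasEnoughRootsOfUnity]
    exact Nat.card_pos.ne'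
  have hinj : Function.Injective (dualC ρ) := by
    rw [← MonoidHom.ker_eq_bot_iff, eq_bot_iff]
    intro g hg
    rw [MonoidHom.mem_ker] at hg
    rw [mem_bot]
    have h1 : g⁻¹ = 1 := by
      apply hρ
      rw [map_one]
      ext v
      rw [MulAut.one_apply]
      refine (CommGroup.forall_apply_eq_apply_iff V (M := ℂ)).1 (fun f => ?_)
      rw [← dualC_apply, hg, MulAut.one_apply]
    exact inv_eq_one.1 h1
  have h1 := main (V := V →* ℂˣ) (ρ := dualC ρ) hinj (fun f => by
    ext1 v
    rw [MonoidHom.mul_apply, ← map_mul, hV, map_one, MonoidHom.one_apply]) hO h3 hK _ A rfl hA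
  refine h1.trans ?_
  -- the annihilator of `U`
  have h2 : (MonoidHom.domRestrictHom U ℂˣ).ker ≤ CS (V := V →* ℂˣ) (dualC ρ) A := by
    intro f hf a ha
    rw [MonoidHom.mem_ker] at hf
    ext1 v
    rw [dualC_apply]
    have h4 := hU a⁻¹ (inv_mem ha) v
    have h5 : f (ρ a⁻¹ v * v⁻¹) = 1 := by
      have := DFunLike.congr_fun hf (⟨_, h4⟩ : U)
      exact this
    rw [map_mul, map_inv f, mul_inv_eq_one] at h5
    exact h5
  have h4 := CommGroup.card_domRestrictHom_ker (G := V) (M := ℂ) U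
  have h5 := Subgroup.card_le_of_le h2
  rw [h4] at h5
  have h6 := (CS (V := V →* ℂˣ) (dualC ρ) A).card_mul_index
  rw [CommGroup.card_monoidHom_of_hasEnoughRootsOfUnity] at h6
  have h7 := U.card_mul_index
  rw [← h7] at h6
  have h8 : U.index ≤ Nat.card (CS (V := V →* ℂˣ) (dualC ρ) A) := h5
  have h9 : 0 < U.index := Nat.pos_of_ne_zero index_ne_zero_of_finite
  by_contra hcon
  push Not at hcon
  have : Nat.card U * U.index < Nat.card (CS (V := V →* ℂˣ) (dualC ρ) A) * (CS (V := V →* ℂˣ) (dualC ρ) A).index := by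
    calc Nat.card U * U.index < (CS (V := V →* ℂˣ) (dualC ρ) A).index * U.index := Nat.mul_lt_mul_of_pos_right hcon h9
      _ ≤ (CS (V := V →* ℂˣ) (dualC ρ) A).index * Nat.card (CS (V := V →* ℂˣ) (dualC ρ) A) := Nat.mul_le_mul_left _ h8
      _ = _ := mul_comm _ _
  omega

end Cfsg.Agent.H210.Off
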