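import Cfsg.Agent.H210.Off.Struct
import Cfsg.Agent.H210.Off.PslStep
import Cfsg.Agent.ClassicalGeometry.PSL2Basic
import Cfsg.Agent.Involutions.IndexFive
import Cfsg.Agent.TwoFusion.FStarControl
import Cfsg.Agent.OddRank.SzTits

/-!
# Offenders in S₃-free groups

`G` finite with `O₂(G) = 1`, no involution of `G` inverts an element of order three, the non-abelian composition factors
of `G` are Suzuki groups or `PSL(2, 3^odd)`; `V` a faithful elementary abelian 2-group for `G`. Then
`|A|² ≤ |V : C_V(A)|` for every elementary abelian 2-subgroup `A`.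
-/

set_option autoImplicit false
open Cfsg

namespace Cfsg.Agent.H210.Off

open Subgroup
open Cfsg.Agent.OddCyclic.T1Module Cfsg.Agent.OddCyclic.FFBasic Cfsg.Agent.OddCyclic.FFRed
open Cfsg.Agent.SignalizersComponents.CompBasic
open Cfsg.Agent.SignalizersComponents.Components

universe u

variable {G : Type u} [Group G] [Finite G]

/-- the centre of a component has odd order if `O₂ = 1` -/
theorem odd_center (hO : pCore 2 G = ⊥) {E : Subgroup G} (hE : IsComponent E) :
    Odd (Nat.card (center E)) := by
  have : Fact (Nat.Prime 2) := ⟨Nat.prime_two⟩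
  by_contra hodd
  rw [Nat.not_odd_iff_even, even_iff_two_dvd] at hodd
  obtain ⟨⟨y, hy⟩, hyo⟩ := exists_prime_orderOf_dvd_card' 2 hodd
  rw [Subgroup.orderOf_mk] at hyo
  have hn : (zpowers y).Normal := by
    refine ⟨?_⟩
    rintro _ ⟨k, rfl⟩ g
    have h1 : y ^ k ∈ center E := zpow_mem hy k
    have h2 := mem_center_iff.1 h1 g
    simp only [h2, mul_inv_cancel_right]
    exact ⟨k, rfl⟩
  have hsub : ((zpowers y).map E.subtype).IsSubnormal := (hn.isSubnormal).trans' hE.1
  have h2g : IsPGroup 2 (zpowers y) := IsPGroup.of_card (n := 1) (by rw [Nat.card_zpowers, hyo, pow_one])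
  have hle := subnormal_pGroup_le_pCore hsub (h2g.map E.subtype)
  rw [hO, le_bot_iff, map_eq_bot_iff_of_injective _ E.subtype_injective, zpowers_eq_bot] at hle
  rw [hle, orderOf_one] at hyo
  norm_num at hyo

omit [Finite G] in
theorem not_comm_of_component {E : Subgroup G} (hE : IsComponent E) : ¬ IsMulCommutative (E ⧸ center E) := by
  intro h
  obtain ⟨a, b, hab⟩ := Cfsg.Agent.OddCyclic.T1SzComp.not_comm_of_component hE
  exact hab (h.is_comm.comm a b)

theorem tic_of_component {E A : Subgroup G} (hE : IsComponent E) : TIc A E := by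
  intro a _
  by_cases h : E.map (MulAut.conj a).toMonoidHom = E
  · left
    apply mem_normalizer_of_finite
    intro d hd
    rw [← h]
    exact ⟨d, hd, rfl⟩
  · right
    intro x hx y hy
    have h1 := component_commutator_eq_bot_of_ne (isComponent_conj a hE) hE h
    rw [commutator_eq_bot_iff_le_centralizer] at h1
    exact (mem_centralizer_iff.1 (h1 ⟨x, hx, rfl⟩) y hy).symm

/-- an odd order subgroup of the component which is not central -/
theorem exists_odd_noncentral {E : Subgroup G} (hE : IsComponent E) :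
    ∃ R : Subgroup G, R ≤ E ∧ Odd (Nat.card R) ∧ ¬ R ≤ centralizer (E : Set G) := by
  have hq := hE.2
  obtain ⟨r, hr, hr2, hrd⟩ : ∃ r : ℕ, r.Prime ∧ r ≠ 2 ∧ r ∣ Nat.card E := by
    by_contra hcon
    push Not at hcon
    have : Fact (Nat.Prime 2) := ⟨Nat.prime_two⟩
    have h1 : IsPGroup 2 E := by
      rw [IsPGroup.iff_card]
      have h0 : Nat.card E ≠ 0 := Nat.card_pos.ne'
      refine ⟨_, Nat.eq_prime_pow_of_unique_prime_dvd h0 ?_⟩
      intro p hp hpd
      by_contra h2
      exact hcon p hp h2 hpd
    exact quasisimple_not_isSolvable hq (by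
      have := h1.isNilpotent
      infer_instance)
  have : Fact r.Prime := ⟨hr⟩
  obtain ⟨P⟩ : Nonempty (Sylow r E) := inferInstance
  have hP := sylow_not_le_center_of_perfect (quasisimple_isPerfect hq) r hrd P
  refine ⟨(P : Subgroup E).map E.subtype, map_subtype_le _, ?_, ?_⟩
  · rw [Subgroup.card_map_of_injective E.subtype_injective]
    obtain ⟨k, hk⟩ := (IsPGroup.iff_card).1 P.2
    rw [hk]
    exact (hr.odd_of_ne_two hr2).pow
  · intro h
    apply hP
    intro x hx
    rw [mem_center_iff]
    intro g
    apply Subtype.ext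
    exact mem_centralizer_iff.1 (h ⟨x, hx, rfl⟩) g g.2

/-- the centre of a component of Suzuki type is trivial -/
theorem center_eq_bot_of_suzuki (hO : pCore 2 G = ⊥) {E : Subgroup G} (hE : IsComponent E)
    (h : Cfsg.Lie.IsoSuzuki (E ⧸ center E)) : center E = ⊥ := by
  rw [eq_bot_iff]
  intro z hz
  rw [mem_bot]
  by_contra hz1
  obtain ⟨p, hp, hpz⟩ := Nat.exists_prime_and_dvd (fun h => hz1 (orderOf_eq_one_iff.1 h) : orderOf z ≠ 1)
  have : Fact p.Prime := ⟨hp⟩
  obtain ⟨y, hy, hyo⟩ : ∃ y ∈ center E, orderOf y = p := by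
    refine ⟨z ^ (orderOf z / p), pow_mem hz _, ?_⟩
    exact orderOf_pow_orderOf_div (orderOf_pos z).ne' hpz
  have hy1 : y ≠ 1 := by
    intro h
    rw [h, orderOf_one] at hyo
    exact hp.one_lt.ne hyo
  have hp2 : p ≠ 2 := by
    rintro rfl
    have h1 := odd_center hO hE
    have h2 := orderOf_dvd_natCard (⟨y, hy⟩ : center E)
    rw [Subgroup.orderOf_mk, hyo] at h2
    exact (Nat.not_even_iff_odd.2 h1) (even_iff_two_dvd.2 h2)
  obtain ⟨P⟩ : Nonempty (Sylow p E) := inferInstance
  -- P is abelian, being central by cyclic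
  have hPm : IsMulCommutative (P : Subgroup E) := by
    have hcyc : IsCyclic ((P : Subgroup E).map (QuotientGroup.mk' (center E))) :=
      Cfsg.Agent.OddRank.SzTits.isCyclic_of_isPGroup h hp2 _ (P.2.map _)
    let f : (P : Subgroup E) →* ((P : Subgroup E).map (QuotientGroup.mk' (center E)) : Subgroup _) :=
      (QuotientGroup.mk' (center E)).subgroupMap (P : Subgroup E)
    have hf : f.ker ≤ center (P : Subgroup E) := by
      intro x hx
      rw [MonoidHom.mem_ker] at hx
      have h1 : ((x : E) : E ⧸ center E) = 1 := congrArg Subtype.val hx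
      rw [QuotientGroup.eq_one_iff, mem_center_iff] at h1
      rw [mem_center_iff]
      intro g
      exact Subtype.ext (h1 g)
    exact MonoidHom.isMulCommutative_of_isCyclic_of_ker_le_center f hf
  exact hy1 (Cfsg.Agent.OddCyclic.T1SzComp.eq_one_of_center hE.2.1 P hPm hy
    (n := 1) (by rw [pow_one, ← hyo]; exact pow_orderOf_eq_one y))

theorem main {V : Type*} [CommGroup V] [Finite V] {ρ : G →* MulAut V} (hρ : Function.Injective ρ)
    (hV : ∀ v : V, v * v = 1) (hO : pCore 2 G = ⊥) (h3 : NoInv3 G)
    (hK : Cfsg.IsCompositionKGroupWith Cfsg.IsSuzukiOrPSL2OddPowerThree G) :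
    ∀ (k : ℕ) (A : Subgroup G), Nat.card A = k → (∀ a ∈ A, a * a = 1) → Nat.card A ^ 2 ≤ (CS ρ A).index := by
  intro k
  induction k using Nat.strong_induction_on with
  | _ k ih =>
    intro A hk hA
    have hind : ∀ B < A, Nat.card B ^ 2 ≤ (CS ρ B).index := by
      intro B hB
      refine ih (Nat.card B) ?_ B rfl (fun b hb => hA b (hB.le hb))
      rw [← hk]
      rcases lt_or_eq_of_le (Subgroup.card_le_of_le hB.le) with h | h
      · exact h
      · exact absurd (Subgroup.eq_of_le_of_card_ge hB.le h.ge) hB.ne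
    have hodd : ∀ R : Subgroup G, Odd (Nat.card R) → A ≤ normalizer (R : Set G) →
        (¬ A ≤ centralizer (R : Set G)) → Nat.card A ^ 2 ≤ (CS ρ A).index := by
      intro R h1 h2 h4
      obtain ⟨B, hBA, hBi, hB4⟩ := step_odd hρ hV h3 hA h1 h2 h4
      refine card_sq_le hBA (hind B (lt_of_le_of_ne hBA ?_)) (by rw [hBi]; exact hB4)
      rintro rfl
      rw [relIndex_self] at hBi
      norm_num at hBi
    by_cases hA1 : A = ⊥
    · rw [hA1, Subgroup.card_bot, one_pow]
      exact Nat.one_le_iff_ne_zero.2 index_ne_zero_of_finite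
    by_cases hF : A ≤ centralizer (fittingSubgroup G : Set G)
    swap
    · have hn : (fittingSubgroup G).Normal := Cfsg.Agent.Lib.Cores.fittingSubgroup_normal
      exact hodd _ (Cfsg.Agent.LieExceptional.CITSylow.odd_card_fitting hO)
        (by rw [Subgroup.normalizer_eq_top]; exact le_top) hF
    -- a component not centralized by `A`
    obtain ⟨E, hE, hAE⟩ : ∃ E : Subgroup G, IsComponent E ∧ ¬ A ≤ centralizer (E : Set G) := by
      by_contra hcon
      push Not at hcon
      apply hA1
      have h1 : layer G ≤ centralizer (A : Set G) := by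
        rw [layer_le_iff]
        intro K hK
        rw [Subgroup.le_centralizer_iff]
        exact hcon K hK
      have h2 : generalizedFittingSubgroup G ≤ centralizer (A : Set G) := by
        rw [Cfsg.Agent.Lib.GenFitting.genFitting_def]
        refine sup_le h1 ?_
        rw [Subgroup.le_centralizer_iff]
        exact hF
      rw [Subgroup.le_centralizer_iff] at h2
      have h4 := h2.trans Cfsg.Agent.TwoFusion.FStarControl.centralizer_genFitting_le_fitting
      have h5 := Cfsg.Agent.LieExceptional.CITSylow.odd_card_fitting hO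
      rw [eq_bot_iff]
      intro a ha
      rw [mem_bot]
      have h6 := orderOf_dvd_natCard (⟨a, h4 ha⟩ : fittingSubgroup G)
      rw [Subgroup.orderOf_mk] at h6
      have h7 : orderOf a ∣ 2 := orderOf_dvd_of_pow_eq_one (by rw [sq]; exact hA a ha)
      rcases (Nat.dvd_prime Nat.prime_two).1 h7 with h8 | h8
      · exact orderOf_eq_one_iff.1 h8
      · exfalso
        rw [h8] at h6
        exact (Nat.not_even_iff_odd.2 h5) (even_iff_two_dvd.2 h6)
    have hTI : TIc A E := tic_of_component hE
    by_cases hN : A ⊓ normalizer (E : Set G) ≤ centralizer (E : Set G)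
    · -- `N_A(E)` centralizes `E`, hence `A` does not normalize `E`
      obtain ⟨R₀, hR₀E, hR₀o, hR₀c⟩ := exists_odd_noncentral hE
      obtain ⟨R, h1, h2, h4⟩ := exists_odd_of_perm hA hTI hR₀E hR₀o
        (hN.trans ((Subgroup.centralizer_le hR₀E).trans (Subgroup.centralizer_le_normalizer _)))
        (Or.inr ⟨fun h => hAE (fun a ha => hN ⟨ha, h ha⟩), hR₀c⟩)
      exact hodd R h1 h2 h4
    · have hsimp : IsSimpleGroup (E ⧸ center E) := hE.2.2
      rcases hK E hE.1 (center E) hsimp (not_comm_of_component hE) with hs | ⟨F, iF, iF', n, hn, ⟨e⟩⟩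
      · -- Suzuki groups
        have hz := center_eq_bot_of_suzuki hO hE hs
        have hsE : Cfsg.Lie.IsoSuzuki E := Cfsg.Agent.ThreePrime.ACFacts.isoSuzuki_of_equiv
          ((QuotientGroup.quotientMulEquivOfEq hz).trans QuotientGroup.quotientBot).symm hs
        exact step_sz_perm hρ hV hA hind _ E rfl hsE hTI hN
      · -- `PSL(2, 3^odd)`
        have hn1 : 1 ≤ n := by
          by_contra hn0
          have hn0' : n = 0 := by omega
          subst hn0'
          have hc := Cfsg.Agent.ClassicalGeometry.PSL2Basic.card_PSL2_odd (F := F)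
            (by rw [hn]; decide)
          rw [hn, ← Nat.card_congr e.toEquiv] at hc
          have h12 := (Cfsg.Agent.Involutions.IndexFive.card_not_small (G := E ⧸ center E) (by
            intro h
            exact not_comm_of_component hE ⟨⟨h⟩⟩)).2.2.2
          apply h12
          norm_num at hc
          omega
        obtain ⟨R, hRE, h1, h2, h4⟩ := exists_odd_of_psl h3 (A := A ⊓ normalizer (E : Set G))
          (D := E) (fun a ha => hA a ha.1) inf_le_right hN hE.2.1 (odd_center hO hE) hn1 hn e
        obtain ⟨R', h1', h2', h4'⟩ := exists_odd_of_perm hA hTI hRE h1 h2 (Or.inl h4)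
        exact hodd R' h1' h2' h4'

end Cfsg.Agent.H210.Off
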