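import Cfsg.Agent.H210.Off.PslMat

/-!
# Involutory automorphisms of `PSL(2, 3^(2n+1))`
-/

set_option autoImplicit false

namespace Cfsg.Agent.H210.Off

open Matrix Cfsg.Agent.Lib.SL2Mat Cfsg.Agent.Lib.PSL2Circle Cfsg.Agent.Lib.PSL2Inv
open Cfsg.Agent.GH.L2Aut

variable {F : Type*} [Field F]

local notation "SL2" => Matrix.SpecialLinearGroup (Fin 2) F

theorem ent_neg (x : SL2) (i j : Fin 2) : ent (-x) i j = - ent x i j := rfl

theorem comb_val {s : SL2} (hs : ent s 1 1 = - ent s 0 0) (p : Circ F) :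
    (comb s hs p).1 = p.re • (1 : Matrix (Fin 2) (Fin 2) F) + p.im • s.1 := by
  ext i j
  fin_cases i <;> fin_cases j
  · change ent (comb s hs p) 0 0 = _
    rw [comb_00]
    simp [ent]
  · change ent (comb s hs p) 0 1 = _
    rw [comb_01]
    simp [ent]
  · change ent (comb s hs p) 1 0 = _
    rw [comb_10]
    simp [ent]
  · change ent (comb s hs p) 1 1 = _
    rw [comb_11]
    have h1 : s.1 1 1 = - s.1 0 0 := hs
    simp [ent, h1]
    ring

theorem comb_inv_val {s : SL2} (hs : ent s 1 1 = - ent s 0 0) (p : Circ F) :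
    ((comb s hs p)⁻¹).1 = p.re • (1 : Matrix (Fin 2) (Fin 2) F) - p.im • s.1 := by
  rw [ent_inv]
  ext i j
  fin_cases i <;> fin_cases j
  · change ent (comb s hs p) 1 1 = _
    rw [comb_11]
    simp [ent]
  · change - ent (comb s hs p) 0 1 = _
    rw [comb_01]
    simp [ent]
  · change - ent (comb s hs p) 1 0 = _
    rw [comb_10]
    simp [ent]
  · change ent (comb s hs p) 0 0 = _
    rw [comb_00]
    have h1 : s.1 1 1 = - s.1 0 0 := hs
    simp [ent, h1]

/-- elements anticommuting with `s` invert the circle of `s` -/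
theorem comb_inverted {s g : SL2} (hs : ent s 1 1 = - ent s 0 0) (hg : g * s = -(s * g)) (p : Circ F) :
    g * comb s hs p * g⁻¹ = (comb s hs p)⁻¹ := by
  rw [mul_inv_eq_iff_eq_mul]
  apply Subtype.ext
  change g.1 * (comb s hs p).1 = ((comb s hs p)⁻¹).1 * g.1
  have h1 : g.1 * s.1 = -(s.1 * g.1) := congrArg Subtype.val hg
  rw [comb_val, comb_inv_val, Matrix.mul_add, Matrix.sub_mul, Matrix.mul_smul, Matrix.mul_smul, h1,
    Matrix.smul_mul, Matrix.smul_mul, Matrix.mul_one, Matrix.one_mul]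
  simp [sub_eq_add_neg]

theorem comb_centralized {s g : SL2} (h2 : (2 : F) ≠ 0) (hs : ent s 1 1 = - ent s 0 0)
    (hg : g * s = s * g) (p : Circ F) : g * comb s hs p * g⁻¹ = comb s hs p := by
  obtain ⟨q, rfl⟩ := exists_comb h2 hs hg
  rw [comb_comm hs q p]
  simp

theorem sq_of_tr {s : SL2} (hs : ent s 1 1 = - ent s 0 0) : s * s = -1 := by
  have hd := det_eq s
  rw [hs] at hd
  refine ext_ent ?_ ?_ ?_ ?_
  all_goals
    rw [ent_neg, ent_mul]
    simp only [hs, ent_one_00, ent_one_01, ent_one_10, ent_one_11]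
  · linear_combination -hd
  · ring
  · ring
  · linear_combination -hd

theorem three_pow_mod (n : ℕ) : 3 ^ (2 * n + 1) % 8 = 3 := by
  rw [pow_add, pow_mul, pow_one, Nat.mul_mod, Nat.pow_mod]
  norm_num

/-- an odd prime divisor of `3^(2n+1) + 1` -/
theorem exists_odd_prime {n : ℕ} (hn : 1 ≤ n) : ∃ r : ℕ, r.Prime ∧ r ≠ 2 ∧ r ∣ 3 ^ (2 * n + 1) + 1 := by
  have h1 := three_pow_mod n
  have h2 : 27 ≤ 3 ^ (2 * n + 1) := by
    calc 27 = 3 ^ 3 := by norm_num
      _ ≤ 3 ^ (2 * n + 1) := Nat.pow_le_pow_right (by norm_num) (by omega)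
  obtain ⟨m, hm⟩ : ∃ m, 3 ^ (2 * n + 1) + 1 = 4 * m := ⟨(3 ^ (2 * n + 1) + 1) / 4, by omega⟩
  have hm1 : m ≠ 1 := by omega
  obtain ⟨r, hr, hrm⟩ := Nat.exists_prime_and_dvd hm1
  refine ⟨r, hr, ?_, hm ▸ Dvd.dvd.mul_left hrm 4⟩
  rintro rfl
  omega

section main

variable {K : Type*} [Group K] (R : GH.L2Aut.Rep F K)

include R in
/-- lift of an involution -/
theorem exists_lift_inv {t : K} (ht : t * t = 1) (ht1 : t ≠ 1) :
    ∃ s : SL2, R.π s = t ∧ s * s = -1 := by
  obtain ⟨s, rfl⟩ := R.surj t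
  refine ⟨s, rfl, ?_⟩
  rw [← map_mul, R.ker] at ht
  rcases ht with h | h
  · exfalso
    apply ht1
    rw [R.ker]
    exact Cfsg.Agent.Lib.PSL2Inv.sq_eq_one R.two h
  · exact h

include R in
theorem anti_of_comm {t t' : K} {s s' : SL2} (hs : R.π s = t) (hs' : R.π s' = t') (hss : s * s = -1)
    (hss' : s' * s' = -1) (hc : t * t' = t' * t) (hne : t ≠ t') : s * s' = -(s' * s) := by
  rw [← hs, ← hs', ← map_mul, ← map_mul, R.π_eq_iff] at hc
  rcases hc with h | h
  · exfalso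
    have h1 : (s * s') * (s * s') = 1 := by
      calc (s * s') * (s * s') = s * (s' * s) * s' := by simp [mul_assoc]
        _ = s * (s * s') * s' := by rw [h]
        _ = (s * s) * (s' * s') := by simp [mul_assoc]
        _ = 1 := by rw [hss, hss', neg_mul_neg, mul_one]
    have h2 : R.π (s * s') = 1 := by
      rw [R.ker]
      exact Cfsg.Agent.Lib.PSL2Inv.sq_eq_one R.two h1
    have h3 : R.π s * R.π s = 1 := by rw [← map_mul, hss]; exact (R.ker _).2 (Or.inr rfl)
    apply hne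
    rw [← hs, ← hs']
    rw [map_mul] at h2
    calc R.π s = (R.π s)⁻¹ := (inv_eq_of_mul_eq_one_left h3).symm
      _ = R.π s' := inv_eq_of_mul_eq_one_right h2
  · exact h

include R in
/-- **an element of odd order normalized by an elementary abelian 2-group and inverted by some involution** -/
theorem exists_torus [Fintype F] {n : ℕ} (hn : 1 ≤ n) (hF : Fintype.card F = 3 ^ (2 * n + 1))
    {T : Subgroup K} (hT : ∀ t ∈ T, t * t = 1) (hT1 : T ≠ ⊥) :
    ∃ (r : ℕ) (y : K), r.Prime ∧ r ≠ 2 ∧ orderOf y = r ∧ (∀ t ∈ T, t * y * t⁻¹ = y ∨ t * y * t⁻¹ = y⁻¹) ∧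
      ∃ t ∈ T, t * y * t⁻¹ = y⁻¹ := by
  classical
  have hmod := three_pow_mod n
  have hTc : ∀ a ∈ T, ∀ b ∈ T, a * b = b * a := by
    intro a ha b hb
    have h1 := hT _ (mul_mem ha hb)
    have h2 := hT a ha
    have h3 := hT b hb
    have e1 : a⁻¹ = a := inv_eq_of_mul_eq_one_left h2
    have e2 : b⁻¹ = b := inv_eq_of_mul_eq_one_left h3
    have e3 : (a * b)⁻¹ = a * b := inv_eq_of_mul_eq_one_left h1
    rw [_root_.mul_inv_rev, e1, e2] at e3
    exact e3.symm
  have hnsq : ∀ x : F, x * x ≠ -1 := by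
    intro x hx
    have h1 : IsSquare (-1 : F) := ⟨x, hx.symm⟩
    rw [FiniteField.isSquare_neg_one_iff, hF] at h1
    omega
  obtain ⟨⟨t, ht⟩, ht1'⟩ := Subgroup.ne_bot_iff_exists_ne_one.1 hT1
  have ht1 : t ≠ 1 := fun h => ht1' (Subtype.ext h)
  obtain ⟨s, hs, hss⟩ := exists_lift_inv R (hT t ht) ht1
  have hstr := tr_of_sq R.two hss
  -- the partner
  obtain ⟨s', hs'tr, hanti, hall⟩ : ∃ s' : SL2, ent s' 1 1 = - ent s' 0 0 ∧ s * s' = -(s' * s) ∧
      ∀ u ∈ T, ∃ g : SL2, R.π g = u ∧ (g * s' = s' * g ∨ g * s' = -(s' * g)) := by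
    by_cases hex : ∃ t' ∈ T, t' ≠ 1 ∧ t' ≠ t
    · obtain ⟨t', ht', ht'1, htt'⟩ := hex
      obtain ⟨s', hs', hss'⟩ := exists_lift_inv R (hT t' ht') ht'1
      refine ⟨s', tr_of_sq R.two hss', anti_of_comm R hs hs' hss hss' (hTc t ht t' ht') htt'.symm, ?_⟩
      intro u hu
      obtain ⟨g, hg⟩ := R.surj u
      refine ⟨g, hg, ?_⟩
      have h1 := hTc u hu t' ht'
      rw [← hg, ← hs', ← map_mul, ← map_mul, R.π_eq_iff] at h1
      exact h1
    · push Not at hex
      obtain ⟨s', hs'tr, hanti⟩ := exists_anti R.two hnsq s hstr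
      refine ⟨s', hs'tr, hanti, ?_⟩
      intro u hu
      by_cases hu1 : u = 1
      · exact ⟨1, by rw [map_one, hu1], Or.inl (by rw [one_mul, mul_one])⟩
      · exact ⟨s, by rw [hs, hex u hu hu1], Or.inr hanti⟩
  -- the element
  obtain ⟨r, hr, hr2, hrd⟩ := exists_odd_prime hn
  have : Fact r.Prime := ⟨hr⟩
  have hcard : Nat.card (Subgroup.centralizer ({s'} : Set SL2)) = 3 ^ (2 * n + 1) + 1 := by
    rw [card_centralizer R.two hs'tr]
    have h3 : Nat.card F = 3 ^ (2 * n + 1) := by rw [Nat.card_eq_fintype_card, hF]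
    rcases card_circ (F := F) R.two with ⟨h1, -⟩ | ⟨-, h2⟩
    · rw [h3] at h1
      omega
    · rw [h2, h3]
  have hfin : Finite (Subgroup.centralizer ({s'} : Set SL2)) :=
    Nat.finite_of_card_ne_zero (by rw [hcard]; omega)
  obtain ⟨⟨y, hyc⟩, hyo⟩ := exists_prime_orderOf_dvd_card' r (hcard ▸ hrd)
  rw [Subgroup.orderOf_mk] at hyo
  have hyc' : y * s' = s' * y := Subgroup.mem_centralizer_singleton_iff.1 hyc
  obtain ⟨p, hp⟩ := exists_comb R.two hs'tr hyc'
  have hπy : orderOf (R.π y) = r := by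
    apply orderOf_eq_prime
    · rw [← map_pow, ← hyo, pow_orderOf_eq_one, map_one]
    · intro h
      rw [R.ker] at h
      rcases h with h | h
      · rw [h, orderOf_one] at hyo
        exact hr.one_lt.ne hyo
      · have h4 : y ^ 2 = 1 := by rw [h, sq, neg_mul_neg, mul_one]
        have h5 := orderOf_dvd_of_pow_eq_one h4
        rw [hyo] at h5
        exact hr2 ((Nat.prime_dvd_prime_iff_eq hr Nat.prime_two).1 h5)
  refine ⟨r, R.π y, hr, hr2, hπy, ?_, t, ht, ?_⟩
  · intro u hu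
    obtain ⟨g, hg, h | h⟩ := hall u hu
    · left
      rw [← hg, ← map_mul, ← map_inv, ← map_mul, ← hp, comb_centralized R.two hs'tr h]
    · right
      rw [← hg, ← map_mul, ← map_inv, ← map_inv, ← map_mul, ← hp, comb_inverted hs'tr h]
  · rw [← hs, ← map_mul, ← map_inv, ← map_inv, ← map_mul, ← hp, comb_inverted hs'tr hanti]

end main

end Cfsg.Agent.H210.Off
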