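import Cfsg.Agent.H210.Off.Suz

/-!
# Permuted components
-/

set_option autoImplicit false
open Cfsg

namespace Cfsg.Agent.H210.Off

open Subgroup
open Cfsg.Agent.OddCyclic.T1Module Cfsg.Agent.OddCyclic.FFBasic Cfsg.Agent.OddCyclic.FFRed

variable {G : Type*} [Group G]

/-- the conjugates of `D` under `A` are equal to `D` or commute with `D` -/
def TIc (A D : Subgroup G) : Prop :=
  ∀ a ∈ A, a ∈ normalizer (D : Set G) ∨ ∀ x ∈ D, ∀ y ∈ D, (a * x * a⁻¹) * y = y * (a * x * a⁻¹)

theorem mem_normalizer_of_finite [Finite G] {a : G} {D : Subgroup G} (h : ∀ d ∈ D, a * d * a⁻¹ ∈ D) :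
    a ∈ normalizer (D : Set G) := by
  have h1 : D.map (MulAut.conj a).toMonoidHom ≤ D := by
    rintro _ ⟨d, hd, rfl⟩
    exact h d hd
  have h2 : D.map (MulAut.conj a).toMonoidHom = D := by
    apply Subgroup.eq_of_le_of_card_ge h1
    rw [Subgroup.card_map_of_injective (MulAut.conj a).injective]
  rw [mem_normalizer_iff]
  intro d
  refine ⟨h d, fun hd => ?_⟩
  have h3 : a * d * a⁻¹ ∈ D.map (MulAut.conj a).toMonoidHom := by rw [h2]; exact hd
  obtain ⟨d', hd', he⟩ := h3
  have : d' = d := (MulAut.conj a).injective he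
  rwa [← this]

/-- **odd order subgroups from permuted subgroups** -/
theorem exists_odd_of_perm [Finite G] {A L R₀ : Subgroup G} (hA : ∀ a ∈ A, a * a = 1)
    (hTI : TIc A L) (hR₀L : R₀ ≤ L) (hodd : Odd (Nat.card R₀))
    (hn : A ⊓ normalizer (L : Set G) ≤ normalizer (R₀ : Set G))
    (hne : (¬ A ⊓ normalizer (L : Set G) ≤ centralizer (R₀ : Set G)) ∨
      ((¬ A ≤ normalizer (L : Set G)) ∧ ¬ R₀ ≤ centralizer (L : Set G))) :
    ∃ R : Subgroup G, Odd (Nat.card R) ∧ A ≤ normalizer (R : Set G) ∧ ¬ A ≤ centralizer (R : Set G) := by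
  obtain ⟨R, hR⟩ : ∃ R, R = ⨆ a : A, R₀.map (MulAut.conj (a : G)).toMonoidHom := ⟨_, rfl⟩
  have hle : ∀ a : A, R₀.map (MulAut.conj (a : G)).toMonoidHom ≤ R := fun a => by
    rw [hR]; exact le_iSup (fun a : A => R₀.map (MulAut.conj (a : G)).toMonoidHom) a
  have hR₀R : R₀ ≤ R := by
    have := hle 1
    intro x hx
    exact this ⟨x, hx, by simp⟩
  -- the conjugates normalise each other
  have hnorm : ∀ a b : A, ∀ x ∈ R₀.map (MulAut.conj (a : G)).toMonoidHom,
      ∀ y ∈ R₀.map (MulAut.conj (b : G)).toMonoidHom,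
      y * x * y⁻¹ ∈ R₀.map (MulAut.conj (a : G)).toMonoidHom := by
    rintro a b _ ⟨x, hx, rfl⟩ _ ⟨y, hy, rfl⟩
    show (b : G) * y * (b : G)⁻¹ * (a * x * (a : G)⁻¹) * ((b : G) * y * (b : G)⁻¹)⁻¹ ∈ _
    have hab : (a : G)⁻¹ * b ∈ A := mul_mem (inv_mem a.2) b.2
    rcases hTI _ hab with h | h
    · -- the conjugates are equal
      have h1 := hn ⟨hab, h⟩
      have h2 := (mem_normalizer_iff.1 h1 y).1 hy
      refine ⟨((a : G)⁻¹ * b * y * ((a : G)⁻¹ * b)⁻¹) * x * ((a : G)⁻¹ * b * y * ((a : G)⁻¹ * b)⁻¹)⁻¹,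
        mul_mem (mul_mem h2 hx) (inv_mem h2), ?_⟩
      show (a : G) * _ * (a : G)⁻¹ = _
      simp [mul_assoc]
    · have h1 := h y (hR₀L hy) x (hR₀L hx)
      refine ⟨x, hx, ?_⟩
      show (a : G) * x * (a : G)⁻¹ = _
      have h2 : x = ((a : G)⁻¹ * b * y * ((a : G)⁻¹ * b)⁻¹) * x * ((a : G)⁻¹ * b * y * ((a : G)⁻¹ * b)⁻¹)⁻¹ := by
        rw [h1, mul_inv_cancel_right]
      conv_lhs => rw [h2]
      simp [mul_assoc]
  refine ⟨R, ?_, ?_, ?_⟩
  · -- odd order
    have hnR : ∀ a : A, ((R₀.map (MulAut.conj (a : G)).toMonoidHom).subgroupOf R).Normal := by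
      intro a
      refine ⟨fun x hx g => ?_⟩
      rw [mem_subgroupOf] at hx ⊢
      have hg : (g : G) ∈ normalizer ((R₀.map (MulAut.conj (a : G)).toMonoidHom : Subgroup G) : Set G) := by
        have : R ≤ normalizer ((R₀.map (MulAut.conj (a : G)).toMonoidHom : Subgroup G) : Set G) := by
          rw [hR]
          apply iSup_le
          intro b y hy
          exact mem_normalizer_of_finite (fun x hx => hnorm a b x hx y hy)
        exact this g.2
      exact (mem_normalizer_iff.1 hg x).1 hx
    have htop : pPrimeCore 2 R = ⊤ := by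
      rw [eq_top_iff]
      have h1 : ∀ a : A, (R₀.map (MulAut.conj (a : G)).toMonoidHom).subgroupOf R ≤ pPrimeCore 2 R := by
        intro a
        apply Cfsg.Agent.Lib.Cores.le_pPrimeCore (hnR a)
        rw [Nat.card_congr (Subgroup.subgroupOfEquivOfLe (hle a)).toEquiv,
          Subgroup.card_map_of_injective (MulAut.conj (a : G)).injective]
        exact (Nat.coprime_two_right).2 hodd
      intro x _
      have h2 : R ≤ (pPrimeCore 2 R).map R.subtype := by
        conv_lhs => rw [hR]
        apply iSup_le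
        intro a y hy
        exact ⟨⟨y, hle a hy⟩, h1 a (by rw [mem_subgroupOf]; exact hy), rfl⟩
      obtain ⟨z, hz, hzx⟩ := h2 x.2
      have : z = x := Subtype.ext hzx
      rwa [← this]
    have h2 := Cfsg.Agent.Lib.Cores.pPrimeCore_coprime (G := R) 2
    rw [htop, Nat.card_congr Subgroup.topEquiv.toEquiv] at h2
    exact (Nat.coprime_two_right).1 h2
  · intro b hb
    apply mem_normalizer_of_finite
    intro d hd
    have h1 : R ≤ R.comap (MulAut.conj b).toMonoidHom := by
      conv_lhs => rw [hR]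
      apply iSup_le
      rintro a _ ⟨x, hx, rfl⟩
      show b * (a * x * (a : G)⁻¹) * b⁻¹ ∈ R
      apply hle ⟨b * a, mul_mem hb a.2⟩
      refine ⟨x, hx, ?_⟩
      show b * a * x * (b * a)⁻¹ = _
      simp [mul_assoc]
    exact h1 hd
  · intro hcen
    rcases hne with h | ⟨h, h'⟩
    · apply h
      exact (inf_le_left.trans hcen).trans (Subgroup.centralizer_le hR₀R)
    · obtain ⟨a, ha, haL⟩ := SetLike.not_le_iff_exists.1 h
      apply h'
      intro x hx
      rw [mem_centralizer_iff]
      intro y hy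
      have h1 := (hTI a ha).resolve_left haL x (hR₀L hx) y hy
      have h2 := mem_centralizer_iff.1 (hcen ha) x (hR₀R hx)
      have h3 : a * x * a⁻¹ = x := by rw [← h2]; simp
      rw [h3] at h1
      exact h1.symm

theorem card_sq_le [Finite G] {V : Type*} [CommGroup V] [Finite V] {ρ : G →* MulAut V} {A B : Subgroup G}
    (hBA : B ≤ A) (h1 : Nat.card B ^ 2 ≤ (CS ρ B).index)
    (h2 : (B.relIndex A) ^ 2 ≤ (CS ρ A).relIndex (CS ρ B)) : Nat.card A ^ 2 ≤ (CS ρ A).index := by
  rw [← card_mul_relIndex hBA, mul_pow, ← Subgroup.relIndex_mul_index (CS_anti (ρ := ρ) hBA), mul_comm]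
  exact Nat.mul_le_mul h2 h1

/-- **Suzuki subgroups permuted by `A`** -/
theorem step_sz_perm [Finite G] {V : Type*} [CommGroup V] [Finite V] {ρ : G →* MulAut V}
    (hρ : Function.Injective ρ) (hV : ∀ v : V, v * v = 1) {A : Subgroup G}
    (hA : ∀ a ∈ A, a * a = 1) (hind : ∀ B < A, Nat.card B ^ 2 ≤ (CS ρ B).index) :
    ∀ (k : ℕ) (D : Subgroup G), (A ⊓ normalizer (D : Set G)).relIndex A = k → Cfsg.Lie.IsoSuzuki D →
      TIc A D → (¬ A ⊓ normalizer (D : Set G) ≤ centralizer (D : Set G)) →
      Nat.card A ^ 2 ≤ (CS ρ A).index := by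
  intro k
  induction k using Nat.strong_induction_on with
  | _ k ih =>
    intro D hk hD hTI hne
    by_cases hAD : A ≤ normalizer (D : Set G)
    · -- base case
      have hlt : A ⊓ centralizer (D : Set G) < A := by
        refine lt_of_le_of_ne inf_le_left ?_
        intro h
        apply hne
        intro a ha
        have : a ∈ A ⊓ centralizer (D : Set G) := by rw [h]; exact ha.1
        exact this.2
      exact card_sq_le inf_le_left (hind _ hlt) (step_sz hρ hV hA hD hAD)
    · obtain ⟨c, hc, hcD⟩ := SetLike.not_le_iff_exists.1 hAD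
      have hcc := hA c hc
      have hcomm : ∀ x ∈ D, ∀ y ∈ D, (c * x * c⁻¹) * y = y * (c * x * c⁻¹) :=
        (hTI c hc).resolve_left hcD
      have hinv : c⁻¹ = c := inv_eq_of_mul_eq_one_left hcc
      have hz : ∀ z ∈ D, (∀ y ∈ D, z * y = y * z) → z = 1 := by
        intro z hz h
        have h1 := Cfsg.Agent.OddCyclic.CaseESz.inf_centralizer hD
        have h2 : z ∈ D ⊓ centralizer (D : Set G) := ⟨hz, by
          show z ∈ centralizer (D : Set G)
          rw [mem_centralizer_iff]
          intro y hy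
          exact (h y hy).symm⟩
        rwa [h1, mem_bot] at h2
      let δ : D →* G :=
        { toFun := fun x => x * (c * x * c⁻¹)
          map_one' := by simp
          map_mul' := by
            intro x y
            have h1 := hcomm x x.2 y y.2
            show (x : G) * y * (c * (x * y) * c⁻¹) = x * (c * x * c⁻¹) * (y * (c * y * c⁻¹))
            calc (x : G) * y * (c * (x * y) * c⁻¹) = x * (y * (c * x * c⁻¹)) * (c * y * c⁻¹) := by
                  simp [mul_assoc]
              _ = x * ((c * x * c⁻¹) * y) * (c * y * c⁻¹) := by rw [h1]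
              _ = _ := by simp [mul_assoc] }
      have hδ : ∀ x : D, δ x = x * (c * x * c⁻¹) := fun _ => rfl
      have hδinj : Function.Injective δ := by
        rw [← MonoidHom.ker_eq_bot_iff, eq_bot_iff]
        intro x hx
        rw [MonoidHom.mem_ker, hδ] at hx
        rw [mem_bot]
        apply Subtype.ext
        apply hz x x.2
        intro y hy
        have h1 : (x : G) = (c * x * c⁻¹)⁻¹ := eq_inv_of_mul_eq_one_left hx
        have h2 := hcomm x x.2 y hy
        have h3 : (c * x * c⁻¹)⁻¹ * y = y * (c * x * c⁻¹)⁻¹ :=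
          (show Commute (c * x * c⁻¹) y from h2).inv_left.eq
        rw [← h1] at h3
        exact h3
      have hcδ : ∀ x : D, c * δ x * c⁻¹ = δ x := by
        intro x
        rw [hδ]
        have h1 := hcomm x x.2 x x.2
        calc c * (x * (c * x * c⁻¹)) * c⁻¹ = (c * x * c⁻¹) * ((c * c) * x * (c * c)⁻¹) := by
              simp [mul_assoc]
          _ = (c * x * c⁻¹) * x := by rw [hcc]; simp
          _ = _ := h1
      have hbδ : ∀ b ∈ A, ∀ (hb : b ∈ normalizer (D : Set G)) (x : D),
          b * δ x * b⁻¹ = δ ⟨b * x * b⁻¹, (mem_normalizer_iff.1 hb x).1 x.2⟩ := by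
        intro b hbA hb x
        rw [hδ, hδ]
        have h1 : b * c = c * b := comm_of_sq hA hbA hc
        have h2 : c⁻¹ * b⁻¹ = b⁻¹ * c⁻¹ := by rw [← mul_inv_rev, ← mul_inv_rev, h1]
        calc b * (x * (c * x * c⁻¹)) * b⁻¹ = (b * x * b⁻¹) * ((b * c) * x * (c⁻¹ * b⁻¹)) := by
              simp [mul_assoc]
          _ = (b * x * b⁻¹) * ((c * b) * x * (b⁻¹ * c⁻¹)) := by rw [h1, h2]
          _ = _ := by simp [mul_assoc]
      -- the new subgroup
      have hnc : c ∈ normalizer ((δ.range : Subgroup G) : Set G) := by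
        apply mem_normalizer_of_finite
        rintro _ ⟨x, rfl⟩
        exact ⟨x, (hcδ x).symm⟩
      have hnb : ∀ b ∈ A, b ∈ normalizer (D : Set G) → b ∈ normalizer ((δ.range : Subgroup G) : Set G) := by
        intro b hbA hb
        apply mem_normalizer_of_finite
        rintro _ ⟨x, rfl⟩
        exact ⟨_, (hbδ b hbA hb x).symm⟩
      have hsuz : Cfsg.Lie.IsoSuzuki δ.range :=
        Cfsg.Agent.ThreePrime.ACFacts.isoSuzuki_of_equiv (MonoidHom.ofInjective hδinj).symm hD
      have hTI' : TIc A δ.range := by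
        intro a ha
        by_cases h1 : a ∈ normalizer (D : Set G)
        · exact Or.inl (hnb a ha h1)
        by_cases h2 : c * a ∈ normalizer (D : Set G)
        · left
          have h3 : a = c * (c * a) := by rw [← mul_assoc, hcc, one_mul]
          rw [h3]
          exact mul_mem hnc (hnb _ (mul_mem hc ha) h2)
        right
        have hac : a * c = c * a := comm_of_sq hA ha hc
        have k1 := (hTI a ha).resolve_left h1
        have k2 := (hTI _ (mul_mem hc ha)).resolve_left h2
        -- D^a and D^c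
        have k3 : ∀ x ∈ D, ∀ y ∈ D, (a * x * a⁻¹) * (c * y * c⁻¹) = (c * y * c⁻¹) * (a * x * a⁻¹) := by
          intro x hx y hy
          have := k2 x hx y hy
          have h5 : a * x * a⁻¹ = c * (c * a * x * (c * a)⁻¹) * c⁻¹ := by
            calc a * x * a⁻¹ = (c * c) * a * x * a⁻¹ * (c * c)⁻¹ := by rw [hcc]; simp
              _ = _ := by simp [mul_assoc]
          rw [h5]
          calc c * (c * a * x * (c * a)⁻¹) * c⁻¹ * (c * y * c⁻¹)
              = c * ((c * a * x * (c * a)⁻¹) * y) * c⁻¹ := by simp [mul_assoc]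
            _ = c * (y * (c * a * x * (c * a)⁻¹)) * c⁻¹ := by rw [this]
            _ = _ := by simp [mul_assoc]
        have k4 : ∀ x ∈ D, ∀ y ∈ D, (c * a * x * (c * a)⁻¹) * (c * y * c⁻¹) =
            (c * y * c⁻¹) * (c * a * x * (c * a)⁻¹) := by
          intro x hx y hy
          have := k1 x hx y hy
          calc (c * a * x * (c * a)⁻¹) * (c * y * c⁻¹) = c * ((a * x * a⁻¹) * y) * c⁻¹ := by
                simp [mul_assoc]
            _ = c * (y * (a * x * a⁻¹)) * c⁻¹ := by rw [this]
            _ = _ := by simp [mul_assoc]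
        rintro _ ⟨x, rfl⟩ _ ⟨y, rfl⟩
        rw [hδ, hδ]
        have e1 : a * (x * (c * x * c⁻¹)) * a⁻¹ = (a * x * a⁻¹) * (c * a * x * (c * a)⁻¹) := by
          calc a * (x * (c * x * c⁻¹)) * a⁻¹ = (a * x * a⁻¹) * ((a * c) * x * (a * c)⁻¹) := by
                simp [mul_assoc]
            _ = _ := by rw [hac]
        rw [e1]
        have c1 : Commute (a * (x : G) * a⁻¹) (y : G) := k1 x x.2 y y.2
        have c2 : Commute (a * (x : G) * a⁻¹) (c * (y : G) * c⁻¹) := k3 x x.2 y y.2
        have c3 : Commute (c * a * (x : G) * (c * a)⁻¹) (y : G) := k2 x x.2 y y.2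
        have c4 : Commute (c * a * (x : G) * (c * a)⁻¹) (c * (y : G) * c⁻¹) := k4 x x.2 y y.2
        exact ((c1.mul_right c2).mul_left (c3.mul_right c4)).eq
      have hne' : ¬ A ⊓ normalizer ((δ.range : Subgroup G) : Set G) ≤
          centralizer ((δ.range : Subgroup G) : Set G) := by
        intro h
        apply hne
        rintro b ⟨hbA, hb⟩
        show b ∈ centralizer (D : Set G)
        rw [mem_centralizer_iff]
        intro x hx
        have h1 := mem_centralizer_iff.1 (h ⟨hbA, hnb b hbA hb⟩) (δ ⟨x, hx⟩) ⟨_, rfl⟩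
        have h2 : b * δ ⟨x, hx⟩ * b⁻¹ = δ ⟨x, hx⟩ := by rw [← h1]; simp
        rw [hbδ b hbA hb] at h2
        have h3 : b * x * b⁻¹ = x := congrArg Subtype.val (hδinj h2)
        have h4 := congrArg (· * b) h3
        simpa [mul_assoc] using h4.symm
      refine ih _ ?_ δ.range rfl hsuz hTI' hne'
      rw [← hk]
      have hle : A ⊓ normalizer (D : Set G) ≤ A ⊓ normalizer ((δ.range : Subgroup G) : Set G) :=
        fun b hb => ⟨hb.1, hnb b hb.1 hb.2⟩
      have hlt : A ⊓ normalizer (D : Set G) < A ⊓ normalizer ((δ.range : Subgroup G) : Set G) := by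
        refine lt_of_le_of_ne hle ?_
        intro h
        have : c ∈ A ⊓ normalizer (D : Set G) := by rw [h]; exact ⟨hc, hnc⟩
        exact hcD this.2
      have h1 := card_mul_relIndex (inf_le_left : A ⊓ normalizer (D : Set G) ≤ A)
      have h2 := card_mul_relIndex (inf_le_left : A ⊓ normalizer ((δ.range : Subgroup G) : Set G) ≤ A)
      have h3 : Nat.card ↥(A ⊓ normalizer (D : Set G)) <
          Nat.card ↥(A ⊓ normalizer ((δ.range : Subgroup G) : Set G)) := by
        rcases lt_or_eq_of_le (Subgroup.card_le_of_le hle) with h | h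
        · exact h
        · exact absurd (Subgroup.eq_of_le_of_card_ge hle h.ge) hlt.ne
      have h4 : 0 < Nat.card A := Nat.card_pos
      by_contra hcon
      push Not at hcon
      have h5 : Nat.card ↥(A ⊓ normalizer (D : Set G)) * (A ⊓ normalizer (D : Set G)).relIndex A <
          Nat.card ↥(A ⊓ normalizer ((δ.range : Subgroup G) : Set G)) *
            (A ⊓ normalizer ((δ.range : Subgroup G) : Set G)).relIndex A := by
        have h6 : 0 < (A ⊓ normalizer (D : Set G)).relIndex A := by
          rcases Nat.eq_zero_or_pos ((A ⊓ normalizer (D : Set G)).relIndex A) with h | h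
          · rw [h, mul_zero] at h1; omega
          · exact h
        exact lt_of_lt_of_le (Nat.mul_lt_mul_of_pos_right h3 h6) (Nat.mul_le_mul_left _ hcon)
      rw [h1, h2] at h5
      exact lt_irrefl _ h5

end Cfsg.Agent.H210.Off
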